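import Mathlib
import Cfsg.Agent.H107.AutU.Main
import Cfsg.Agent.H197.PSUTwo
import Cfsg.Agent.H177.InvolOrth

/-!
# Automorphisms of order two of `PSU_n(q)`, even `q`, odd `n` (helper46)

* `exists_unit` : a symmetric unitary matrix `A` is `P φ(P)⁻¹` with `P` unitary (`φ` the field automorphism of order two);
* `toAut_conj` : the automorphism `toAut A φ` is then conjugate to `f₂ φ`;
* `sym_of_sq` : `toAut A ρ` of order two with `ρ ≠ 1` : `A` is symmetric;
* `inner_of_sq` : `f₁ A` of order two on `PSU_3(q)` is inner.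
-/

set_option autoImplicit false
set_option linter.unusedSectionVars false

namespace Cfsg.Agent.H46.U38

open Cfsg Matrix Cfsg.Agent.LieClassical.HermBasic Cfsg.Agent.LieClassical.HermSiegel
open Cfsg.Agent.ClassicalGeometry.PSUAutCount (gm semiConj toAut gm_mul gm_one gm_mul_inv gm_inv_mul eq_of_toAut_eq
  sc gm_sc_mul toAut_sc_mul herm_gm gm_inj)
open Cfsg.Agent.ClassicalGeometry.UnitAutBasic (pr pr_surjective exists_scalar_of_mem_center)
open Cfsg.Agent.Schreier.PSU (f₁ f₂ toAut_eq mapGU conj_field)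
open Cfsg.Agent.H197.PSU (rho_eq map_mul' map_one' map_smul' unit_of_eq eq_of_unit)
open Cfsg.Agent.CpAut.Psl (perm perm_apply perm_mul perm_conj fixf fgl)
open Cfsg.Agent.H107.AutU (dt coe_dt dt_norm dt_sc exists_conj_of_dt f₁_sc_mul)

variable {F : Type*} [Field F] [Fintype F] {q n : ℕ} {ρ : F ≃+* F}

theorem map_map_rho (hρ : ρ ^ 2 = 1) (X : Matrix (Fin n) (Fin n) F) : (X.map ρ).map ρ = X := by
  ext i j
  rw [pow_two] at hρ
  exact congrArg (fun f : F ≃+* F => f (X i j)) hρ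

/-- an element of `GU` from a matrix -/
theorem exists_gu (hF : Fintype.card F = q ^ 2) (hρq : ∀ x : F, ρ x = x ^ q) {X : Matrix (Fin n) (Fin n) F}
    (h : Xᵀ * X.map ρ = 1) : ∃ A : GU n F q, gm A = X := by
  obtain ⟨C0, hC0, hC⟩ := ClassicalGeometry.HermOrtho.exists_GU_of_isometry hF (M := X) (unit_of_eq hρq h)
  exact ⟨⟨C0, hC0⟩, hC⟩

/-- **A symmetric unitary matrix is `P φ(P)⁻¹`**, `P` unitary. -/
theorem exists_unit (hF : Fintype.card F = q ^ 2) [CharP F 2] (hn : Odd n) (hρ : orderOf ρ = 2) {A : GU n F q}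
    (hA : (gm A)ᵀ = gm A) : ∃ P : GU n F q, gm A * (gm P).map ρ = gm P := by
  have hρq := rho_eq hF hρ
  have hρ2 : ρ ^ 2 = 1 := by rw [← hρ, pow_orderOf_eq_one]
  have hAu : (gm A)ᵀ * (gm A).map ρ = 1 := eq_of_unit hρq (fun u v => herm_gm A u v)
  have h1 : perm (A : GL (Fin n) F) ρ ^ 2 = 1 := by
    rw [pow_two, perm_mul, ← pow_two, hρ2]
    ext v i
    rw [perm_apply]
    have h2 : ((A : GL (Fin n) F) * fgl ρ (A : GL (Fin n) F) : GL (Fin n) F).1 = 1 := by
      rw [Units.val_mul]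
      change gm A * (gm A).map ρ = 1
      rw [← hAu, hA]
    change ((((A : GL (Fin n) F) * fgl ρ (A : GL (Fin n) F) : GL (Fin n) F).1) *ᵥ v) i = _
    rw [h2, one_mulVec]
    rfl
  obtain ⟨B, hB⟩ := perm_conj hρ two_pos h1
  set b : Matrix (Fin n) (Fin n) F := (B : Matrix (Fin n) (Fin n) F) with hb
  have hB' : gm A * b.map ρ = b := congrArg Units.val hB
  have hdet : b.det ≠ 0 := by
    intro h0
    have h2 := congrArg Matrix.det (show b * ((B⁻¹ : GL (Fin n) F) : Matrix (Fin n) (Fin n) F) = 1 by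
      rw [hb, ← Units.val_mul, mul_inv_cancel, Units.val_one])
    rw [det_mul, h0, zero_mul, det_one] at h2
    exact zero_ne_one h2
  -- the Gram matrix
  set M : Matrix (Fin n) (Fin n) F := bᵀ * b.map ρ with hM
  have hMr : M.map ρ = (b.map ρ)ᵀ * b := by
    rw [hM, map_mul', map_map_rho hρ2, transpose_map]
  have hM1 : M = M.map ρ := by
    rw [hMr, hM]
    have h2 : bᵀ = (b.map ρ)ᵀ * gm A := by
      conv_lhs => rw [← hB']
      rw [transpose_mul, hA]
    rw [h2, Matrix.mul_assoc, hB']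
  have hMt : Mᵀ = M := by
    conv_rhs => rw [hM1, hMr]
    rw [hM, transpose_mul, transpose_transpose]
  have hMe : ∀ i j, ρ (M i j) = M i j := fun i j => (congrFun (congrFun hM1 i) j).symm
  let N : Matrix (Fin n) (Fin n) ↥(fixf ρ) := Matrix.of fun i j => ⟨M i j, hMe i j⟩
  have hN : N.map (fixf ρ).subtype = M := rfl
  have hch : CharP ↥(fixf ρ) 2 := RingHom.charP (fixf ρ).subtype (fixf ρ).subtype.injective 2
  have hNdet : N.det ≠ 0 := by
    intro h0
    have h2 : M.det = 0 := by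
      have h3 := RingHom.map_det (fixf ρ).subtype N
      rw [h0, map_zero] at h3
      exact h3.symm
    rw [hM, det_mul, det_transpose] at h2
    rcases mul_eq_zero.1 h2 with h3 | h3
    · exact hdet h3
    · have h4 : ρ b.det = (b.map ρ).det := RingHom.map_det (ρ : F →+* F) b
      rw [← h4] at h3
      exact hdet ((map_eq_zero ρ).1 h3)
  have hNt : Nᵀ = N := by
    ext i j
    exact congrFun (congrFun hMt i) j
  set Bf : LinearMap.BilinForm ↥(fixf ρ) (Fin n → ↥(fixf ρ)) := Matrix.toBilin' N with hBf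
  have hBa : ∀ v w, Bf v w = v ⬝ᵥ N *ᵥ w := fun v w => Matrix.toBilin'_apply' N v w
  have hBs : Bf.IsSymm := by
    constructor
    intro v w
    rw [hBa, hBa, dotProduct_comm, ← vecMul_transpose, hNt, dotProduct_mulVec]
  have hBn : Bf.Nondegenerate := LinearMap.BilinForm.nondegenerate_toBilin'_of_det_ne_zero' N hNdet
  have hBna : ∃ v, Bf v v ≠ 0 := by
    by_contra hcon
    push Not at hcon
    obtain ⟨m, -, hm, -⟩ := H177.InvolOrth.exists_symplectic_basis Bf (fun v => hcon v) hBn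
    rw [Module.finrank_fin_fun] at hm
    obtain ⟨k, hk⟩ := hn
    omega
  obtain ⟨c, hc⟩ := H176.SymmCharTwo.exists_orthonormal_basis H176.SymmCharTwo.exists_sq
    (Module.finrank_fin_fun (R := ↥(fixf ρ)) (n := n)) Bf hBs hBn hBna
  let R : Matrix (Fin n) (Fin n) ↥(fixf ρ) := Matrix.of fun i j => c j i
  have hR : Rᵀ * N * R = 1 := by
    ext1 i j
    rw [Matrix.mul_mul_apply]
    have h2 := hc i j
    rw [hBa] at h2
    rw [Matrix.one_apply]
    exact h2
  set r : Matrix (Fin n) (Fin n) F := R.map (fixf ρ).subtype with hr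
  have hrr : r.map ρ = r := by
    ext i j
    exact (R i j).2
  have hrM : rᵀ * M * r = 1 := by
    have h2 := congrArg (fun X : Matrix (Fin n) (Fin n) ↥(fixf ρ) => X.map (fixf ρ).subtype) hR
    simp only [Matrix.map_mul] at h2
    rw [Matrix.map_one _ (map_zero _) (map_one _)] at h2
    exact h2
  obtain ⟨P, hP⟩ := exists_gu hF hρq (X := b * r) (by
    rw [transpose_mul, map_mul', hrr]
    calc rᵀ * bᵀ * (b.map ρ * r) = rᵀ * (bᵀ * b.map ρ) * r := by simp only [Matrix.mul_assoc]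
      _ = 1 := hrM)
  refine ⟨P, ?_⟩
  rw [hP, map_mul', hrr, ← Matrix.mul_assoc, hB']

/-- the automorphism is conjugate to the field automorphism -/
theorem toAut_conj {A P : GU n F q} (h : gm A * (gm P).map ρ = gm P) :
    (toAut A ρ : MulAut (PSU n F q)) = f₁ P * f₂ ρ * (f₁ P)⁻¹ := by
  have h1 : A * mapGU ρ P = P := gm_inj (by rw [gm_mul]; exact h)
  have h2 : A = P * (mapGU ρ P)⁻¹ := eq_mul_inv_of_mul_eq h1
  rw [toAut_eq, h2, map_mul, map_inv, ← conj_field]
  group

/-- automorphisms of order two which are not linear come from symmetric matrices -/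
theorem sym_of_sq (hF : Fintype.card F = q ^ 2) [CharP F 2] (hn : 3 ≤ n) {A : GU n F q} (h : toAut A ρ ^ 2 = 1)
    (hρ1 : ρ ≠ 1) : orderOf ρ = 2 ∧ (gm A)ᵀ = gm A := by
  obtain ⟨hρ2, c, hc1, hc⟩ := CpAutU.Desc.exists_scalar hF hn h
  have hord : orderOf ρ = 2 := orderOf_eq_prime hρ2 hρ1
  refine ⟨hord, ?_⟩
  have hρq := rho_eq hF hord
  have hAu : (gm A)ᵀ * (gm A).map ρ = 1 := eq_of_unit hρq (fun u v => herm_gm A u v)
  have h1 : gm A * (gm A).map ρ = c • (1 : Matrix (Fin n) (Fin n) F) := by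
    apply Matrix.mulVec_injective
    funext v
    have h2 := hc v
    rw [pow_two, perm_mul, ← pow_two, hρ2, perm_apply, Units.val_mul] at h2
    rw [smul_mulVec, one_mulVec]
    exact h2
  have h2 : (gm A).map ρ * (gm A)ᵀ = 1 := mul_eq_one_comm.1 hAu
  have h3 : gm A = c • (gm A)ᵀ := by
    calc gm A = gm A * ((gm A).map ρ * (gm A)ᵀ) := by rw [h2, Matrix.mul_one]
      _ = c • (gm A)ᵀ := by rw [← Matrix.mul_assoc, h1, smul_mul_assoc, Matrix.one_mul]
  have h4 : (gm A)ᵀ = c • gm A := by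
    conv_lhs => rw [h3]
    rw [transpose_smul, transpose_transpose]
  have h5 : gm A = (c * c) • gm A := by
    conv_lhs => rw [h3, h4, smul_smul]
  have h6 : c = 1 := by
    by_contra hc1
    have h7 : c * c - 1 ≠ 0 := by
      have h8 : c * c - 1 = (c - 1) ^ 2 := by
        have h2 : (2 : F) = 0 := CharTwo.two_eq_zero
        linear_combination (c - 1) * h2
      rw [h8]
      exact pow_ne_zero _ (sub_ne_zero.2 hc1)
    have h8 : (c * c - 1) • gm A = 0 := by
      rw [sub_smul, one_smul, ← h5, sub_self]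
    have h9 : gm A = 0 := (smul_eq_zero.1 h8).resolve_left h7
    have h10 := gm_mul_inv A
    rw [h9, Matrix.zero_mul] at h10
    have h11 := congrFun (congrFun h10 ⟨0, by omega⟩) ⟨0, by omega⟩
    rw [Matrix.zero_apply, Matrix.one_apply_eq] at h11
    exact zero_ne_one h11
  rw [h4, h6, one_smul]

/-- linear automorphisms of order two of `PSU_3(q)` are inner -/
theorem inner_of_sq (hF : Fintype.card F = q ^ 2) {A : GU 3 F q} (h : (f₁ A : MulAut (PSU 3 F q)) ^ 2 = 1) :
    ∃ g, (f₁ A : MulAut (PSU 3 F q)) = MulAut.conj g := by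
  have hδ := dt_norm hF A
  have hδ' : (((dt 3 F q A)⁻¹ : Fˣ) : F) * (((dt 3 F q A)⁻¹ : Fˣ) : F) ^ q = 1 := by
    have h1 : (dt 3 F q A) * (dt 3 F q A) ^ q = 1 := Units.ext (by
      rw [Units.val_mul, Units.val_pow_eq_pow_val, Units.val_one]; exact hδ)
    have h2 : (dt 3 F q A)⁻¹ * ((dt 3 F q A)⁻¹) ^ q = 1 := by
      rw [inv_pow, ← mul_inv, h1, inv_one]
    have h3 := congrArg Units.val h2
    rwa [Units.val_mul, Units.val_pow_eq_pow_val, Units.val_one] at h3
  have h1 : dt 3 F q (sc 3 ⟨_, hδ'⟩ * A ^ 3) = 1 := by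
    rw [map_mul, map_pow]
    have h2 : dt 3 F q (sc 3 ⟨_, hδ'⟩) = ((dt 3 F q A)⁻¹) ^ 3 := by
      apply Units.ext
      rw [dt_sc, Units.val_pow_eq_pow_val]
    rw [h2, inv_pow, inv_mul_cancel]
  obtain ⟨g, hg⟩ := exists_conj_of_dt _ h1
  refine ⟨pr 3 F q g, ?_⟩
  have h2 : (f₁ A : MulAut (PSU 3 F q)) = (f₁ A) ^ 3 := by rw [pow_succ, h, one_mul]
  rw [← hg, f₁_sc_mul, map_pow]
  exact h2

end Cfsg.Agent.H46.U38
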