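import Mathlib
import Cfsg.Agent.H46.U38.Sym

/-!
# `PSU_3(8)`: outer automorphisms of order two invert an element of order 19 (helper46)
-/

set_option autoImplicit false
set_option linter.unusedSectionVars false
set_option linter.style.haveILetI false

namespace Cfsg.Agent.H46.U38

universe u

open Cfsg Matrix Polynomial Cfsg.Agent.LieClassical.HermBasic Cfsg.Agent.LieClassical.HermSiegel
open Cfsg.Agent.ClassicalGeometry.PSUAutCount (gm semiConj toAut gm_mul gm_one gm_mul_inv gm_inv_mul eq_of_toAut_eq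
  sc gm_sc_mul toAut_sc_mul herm_gm gm_inj)
open Cfsg.Agent.ClassicalGeometry.UnitAutBasic (pr pr_surjective exists_scalar_of_mem_center)
open Cfsg.Agent.Schreier.PSU (f₁ f₂ toAut_eq mapGU conj_field)
open Cfsg.Agent.H197.PSU (rho_eq map_mul' map_one' map_smul' unit_of_eq eq_of_unit)

variable {F : Type u} [Field F] [Fintype F] {ρ : F ≃+* F}

/-- an element of order `9` is not a cube -/
theorem exists_cube (hF : Fintype.card F = 64) : ∃ c : F, c ^ 9 = 1 ∧ ∀ b : F, b ^ 3 ≠ c := by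
  obtain ⟨g, hg⟩ := IsCyclic.exists_ofOrder_eq_natCard (α := Fˣ)
  have hcard : Nat.card Fˣ = 63 := by
    classical
    rw [Nat.card_eq_fintype_card, Fintype.card_units, hF]
  rw [hcard] at hg
  refine ⟨((g ^ 7 : Fˣ) : F), ?_, ?_⟩
  · rw [← Units.val_pow_eq_pow_val, ← pow_mul, show 7 * 9 = 63 from rfl, ← hg, pow_orderOf_eq_one, Units.val_one]
  · intro b hb
    have hb0 : b ≠ 0 := by
      rintro rfl
      exact (g ^ 7 : Fˣ).ne_zero (by rw [← hb]; exact zero_pow three_ne_zero)
    have h1 : (Units.mk0 b hb0) ^ 3 = g ^ 7 := Units.ext (by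
      rw [Units.val_pow_eq_pow_val, Units.val_mk0, hb])
    have h2 : (Units.mk0 b hb0) ^ 63 = 1 := by rw [← hcard]; exact pow_card_eq_one'
    have h3 : g ^ 147 = 1 := by
      rw [show 147 = 7 * 21 from rfl, pow_mul, ← h1, ← pow_mul, h2]
    have h4 := orderOf_dvd_of_pow_eq_one h3
    rw [hg] at h4
    revert h4
    decide

/-- the monomial matrix -/
def cm (c : F) : Matrix (Fin 3) (Fin 3) F := !![0, 0, c; 1, 0, 0; 0, 1, 0]

/-- the antidiagonal matrix -/
def sm (F : Type*) [Field F] : Matrix (Fin 3) (Fin 3) F := !![0, 0, 1; 0, 1, 0; 1, 0, 0]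

omit [Fintype F] in
theorem sm_sq : sm F * sm F = 1 := by
  ext i j
  fin_cases i <;> fin_cases j <;> simp [sm, Matrix.mul_apply, Fin.sum_univ_three]

omit [Fintype F] in
theorem sm_t : (sm F)ᵀ = sm F := by
  ext i j
  fin_cases i <;> fin_cases j <;> simp [sm]

omit [Fintype F] in
theorem sm_map : (sm F).map ρ = sm F := by
  ext i j
  fin_cases i <;> fin_cases j <;> simp [sm]

omit [Fintype F] in
theorem sm_cm (c : F) : sm F * (cm c)ᵀ * sm F = cm c := by
  have h1 : (cm c)ᵀ = !![0, 1, 0; 0, 0, 1; c, 0, 0] := by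
    ext i j
    fin_cases i <;> fin_cases j <;> rfl
  rw [h1]
  ext i j
  fin_cases i <;> fin_cases j <;> simp [sm, cm, Matrix.mul_apply, Fin.sum_univ_three]

omit [Fintype F] in
theorem cm_unit {c : F} (hc : c ^ 9 = 1) (hρ : ρ c = c ^ 8) : (cm c)ᵀ * (cm c).map ρ = 1 := by
  have h1 : c * ρ c = 1 := by rw [hρ, ← pow_succ', hc]
  ext i j
  fin_cases i <;> fin_cases j <;> simp [cm, Matrix.mul_apply, Fin.sum_univ_three, h1]

/-- the cubic extension -/
theorem exists_ext {c : F} (hc : ∀ b : F, b ^ 3 ≠ c) : ∃ (L : Type u) (_ : Field L) (_ : Algebra F L)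
    (bs : Module.Basis (Fin 3) F L) (θ : L), bs 0 = 1 ∧ bs 1 = θ ∧ bs 2 = θ ^ 2 ∧ θ ^ 3 = algebraMap F L c := by
  have hirr : Irreducible (X ^ 3 - C c : F[X]) := X_pow_sub_C_irreducible_of_prime Nat.prime_three hc
  haveI : Fact (Irreducible (X ^ 3 - C c : F[X])) := ⟨hirr⟩
  have hdeg : (X ^ 3 - C c : F[X]).natDegree = 3 := natDegree_X_pow_sub_C
  let pb := AdjoinRoot.powerBasis hirr.ne_zero
  have hdim : pb.dim = 3 := by rw [AdjoinRoot.powerBasis_dim, hdeg]
  have hgen : pb.gen = AdjoinRoot.root _ := AdjoinRoot.powerBasis_gen hirr.ne_zero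
  have hb : ∀ i : Fin 3, (pb.basis.reindex (finCongr hdim)) i = AdjoinRoot.root (X ^ 3 - C c : F[X]) ^ (i : ℕ) := by
    intro i
    rw [Module.Basis.reindex_apply, pb.basis_eq_pow, hgen]
    rfl
  refine ⟨AdjoinRoot (X ^ 3 - C c : F[X]), inferInstance, inferInstance, pb.basis.reindex (finCongr hdim),
    AdjoinRoot.root _, ?_, ?_, ?_, ?_⟩
  · rw [hb]; exact pow_zero _
  · rw [hb]; exact pow_one _
  · rw [hb]; rfl
  · have h1 := AdjoinRoot.eval₂_root (X ^ 3 - C c : F[X])
    rw [eval₂_sub, eval₂_X_pow, eval₂_C, sub_eq_zero] at h1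
    exact h1

/-- the regular representation -/
theorem exists_mat (hF : Fintype.card F = 64) [CharP F 2] {c : F} (hc : ∀ b : F, b ^ 3 ≠ c) (hc9 : c ^ 9 = 1) :
    ∃ a b d : F, (a • (1 : Matrix (Fin 3) (Fin 3) F) + b • cm c + d • cm c ^ 2) ≠ 1 ∧
      (a • (1 : Matrix (Fin 3) (Fin 3) F) + b • cm c + d • cm c ^ 2) ^ 19 = 1 ∧
      (a • (1 : Matrix (Fin 3) (Fin 3) F) + b • cm c + d • cm c ^ 2) ^ 512 =
        a ^ 8 • (1 : Matrix (Fin 3) (Fin 3) F) + b ^ 8 • cm c ^ 512 + d ^ 8 • (cm c ^ 512) ^ 2 ∧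
      cm c ^ 513 = 1 := by
  obtain ⟨L, _, _, bs, θ, h0, h1, h2, h3⟩ := exists_ext hc
  have hfd : FiniteDimensional F L := Module.Basis.finiteDimensional_of_finite bs
  have hfin : Finite L := Module.finite_of_finite F
  letI : Fintype L := Fintype.ofFinite L
  have hcard : Fintype.card L = 64 ^ 3 := by
    rw [Module.card_eq_pow_finrank (K := F) (V := L), hF, Module.finrank_eq_card_basis bs, Fintype.card_fin]
  haveI : CharP L 2 := charP_of_injective_algebraMap (algebraMap F L).injective 2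
  haveI : Fact (Nat.Prime 19) := ⟨by norm_num⟩
  classical
  obtain ⟨y, hy⟩ := exists_prime_orderOf_dvd_card (G := Lˣ) 19 (by
    rw [Fintype.card_units, hcard]; norm_num)
  -- the regular representation
  have hθ : Algebra.leftMulMatrix bs θ = cm c := by
    have e0 : θ * bs 0 = bs 1 := by rw [h0, h1, mul_one]
    have e1 : θ * bs 1 = bs 2 := by rw [h1, h2, pow_two]
    have e2 : θ * bs 2 = c • bs 0 := by
      rw [h2, h0, Algebra.smul_def, mul_one, ← h3]; ring
    ext i j
    rw [Algebra.leftMulMatrix_eq_repr_mul]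
    fin_cases j
    · change (bs.repr (θ * bs 0)) i = _
      rw [e0, bs.repr_self]
      fin_cases i <;> simp [cm]
    · change (bs.repr (θ * bs 1)) i = _
      rw [e1, bs.repr_self]
      fin_cases i <;> simp [cm]
    · change (bs.repr (θ * bs 2)) i = _
      rw [e2, map_smul, bs.repr_self]
      fin_cases i <;> simp [cm]
  set a := bs.repr (y : L) 0 with ha
  set b := bs.repr (y : L) 1 with hb
  set d := bs.repr (y : L) 2 with hd
  have hyy : (y : L) = a • (1 : L) + b • θ + d • θ ^ 2 := by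
    conv_lhs => rw [← bs.sum_repr (y : L)]
    rw [Fin.sum_univ_three, h0, h1, h2]
  have hM : Algebra.leftMulMatrix bs (y : L) =
      a • (1 : Matrix (Fin 3) (Fin 3) F) + b • cm c + d • cm c ^ 2 := by
    conv_lhs => rw [hyy]
    rw [map_add, map_add, map_smul, map_smul, map_smul, map_one, map_pow, hθ]
  have hpow : ∀ x : F, x ^ 512 = x ^ 8 := by
    intro x
    have e1 : x ^ 64 = x := by rw [← hF]; exact FiniteField.pow_card x
    rw [show 512 = 64 * 8 from rfl, pow_mul, e1]
  have hθ27 : θ ^ 27 = 1 := by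
    rw [show 27 = 3 * 9 from rfl, pow_mul, h3, ← map_pow, hc9, map_one]
  refine ⟨a, b, d, ?_, ?_, ?_, ?_⟩
  · rw [← hM]
    intro h
    have e1 : (y : L) = 1 := Algebra.leftMulMatrix_injective bs (by rw [h, map_one])
    have e2 : y = 1 := Units.ext e1
    rw [e2, orderOf_one] at hy
    exact absurd hy (by norm_num)
  · rw [← hM, ← map_pow, ← Units.val_pow_eq_pow_val, ← hy, pow_orderOf_eq_one, Units.val_one, map_one]
  · have e1 : (y : L) ^ 512 = a ^ 8 • (1 : L) + b ^ 8 • θ ^ 512 + d ^ 8 • (θ ^ 512) ^ 2 := by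
      conv_lhs => rw [hyy]
      rw [show 512 = 2 ^ 9 from rfl, add_pow_char_pow, add_pow_char_pow, _root_.smul_pow, _root_.smul_pow,
        _root_.smul_pow,
        ← show 512 = 2 ^ 9 from rfl, hpow, hpow, hpow, one_pow]
      congr 2
      rw [← pow_mul, ← pow_mul, mul_comm]
    rw [← hM, ← map_pow, e1, map_add, map_add, map_smul, map_smul, map_smul, map_one, map_pow, map_pow, map_pow, hθ]
  · have e1 : θ ^ 513 = 1 := by rw [show 513 = 27 * 19 from rfl, pow_mul, hθ27, one_pow]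
    rw [← hθ, ← map_pow, e1, map_one]

/-- **an outer automorphism of order two of `PSU_3(8)` inverts an element of order `19`** -/
theorem exists_inv19 (hF : Fintype.card F = 64) (α : MulAut (PSU 3 F 8))
    (h2 : α * α = 1) (hn : ∀ g, α ≠ MulAut.conj g) : ∃ x : PSU 3 F 8, orderOf x = 19 ∧ α x = x⁻¹ := by
  have hF' : Fintype.card F = 8 ^ 2 := by rw [hF]; norm_num
  haveI : CharP F 2 := by
    have e1 : Fintype.card F = 2 ^ 6 := by rw [hF]; norm_num
    obtain ⟨p, hp⟩ := CharP.exists F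
    haveI : Fact p.Prime := ⟨CharP.char_is_prime F p⟩
    obtain ⟨k, hk, hk'⟩ := FiniteField.card F p
    rw [e1] at hk'
    have e2 : p ∣ 2 ^ 6 := by rw [hk']; exact dvd_pow_self p k.ne_zero
    have e3 : p = 2 := (Nat.prime_dvd_prime_iff_eq hk Nat.prime_two).1 (hk.dvd_of_dvd_pow e2)
    rwa [e3] at hp
  obtain ⟨A, ρ, rfl⟩ := ClassicalGeometry.PSUAutMain.exists_toAut hF' le_rfl (by omega) α
  have hρ1 : ρ ≠ 1 := by
    rintro rfl
    obtain ⟨g, hg⟩ := inner_of_sq hF' (A := A) (by rw [pow_two]; exact h2)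
    exact hn g hg
  obtain ⟨hord, hA⟩ := sym_of_sq hF' le_rfl (A := A) (by rw [pow_two]; exact h2) hρ1
  have hρq := rho_eq hF' hord
  obtain ⟨P, hP⟩ := exists_unit hF' (by decide) hord hA
  -- the antidiagonal matrix
  obtain ⟨S, hS⟩ := exists_gu hF' hρq (X := sm F) (by rw [sm_t, sm_map, sm_sq])
  obtain ⟨Q, hQ⟩ := exists_unit hF' (by decide) hord (A := S) (by rw [hS, sm_t])
  have hSi : gm S⁻¹ = sm F := by
    have e1 := gm_inv_mul S
    rw [hS] at e1
    calc gm S⁻¹ = gm S⁻¹ * (sm F * sm F) := by rw [sm_sq, Matrix.mul_one]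
      _ = sm F := by rw [← Matrix.mul_assoc, e1, Matrix.one_mul]
  -- the element
  obtain ⟨c, hc9, hc3⟩ := exists_cube hF
  obtain ⟨a, b, d, hY1, hY19, hY512, hC⟩ := exists_mat hF hc3 hc9
  set Y : Matrix (Fin 3) (Fin 3) F := a • (1 : Matrix (Fin 3) (Fin 3) F) + b • cm c + d • cm c ^ 2 with hY
  have hcu : (cm c)ᵀ * (cm c).map ρ = 1 := cm_unit hc9 (hρq c)
  have hct : ((cm c).map ρ)ᵀ = cm c ^ 512 := by
    have e1 : ((cm c).map ρ)ᵀ * cm c = 1 := by
      have e2 := congrArg Matrix.transpose hcu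
      rwa [transpose_mul, transpose_transpose, transpose_one] at e2
    calc ((cm c).map ρ)ᵀ = ((cm c).map ρ)ᵀ * (cm c * cm c ^ 512) := by
          rw [← pow_succ', hC, Matrix.mul_one]
      _ = cm c ^ 512 := by rw [← Matrix.mul_assoc, e1, Matrix.one_mul]
  have hYt : (Y.map ρ)ᵀ = Y ^ 512 := by
    have e0 : ∀ M N : Matrix (Fin 3) (Fin 3) F, (M + N).map ρ = M.map ρ + N.map ρ := fun M N =>
      Matrix.map_add _ (map_add ρ) M N
    rw [hY512, ← hct, hY, e0, e0, H197.PSU.map_smul', H197.PSU.map_smul', H197.PSU.map_smul', map_one', pow_two, map_mul', transpose_add,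
      transpose_add, transpose_smul, transpose_smul, transpose_smul, transpose_one, transpose_mul, hρq, hρq, hρq,
      pow_two]
  have hYu : Yᵀ * Y.map ρ = 1 := by
    have e1 : (Y.map ρ)ᵀ * Y = 1 := by
      rw [hYt, ← pow_succ, show 512 + 1 = 19 * 27 from rfl, pow_mul, hY19, one_pow]
    have e2 := congrArg Matrix.transpose e1
    rwa [transpose_mul, transpose_transpose, transpose_one] at e2
  have hdet : Y.det = 1 := by
    have e1 : Y.det ^ 19 = 1 := by rw [← det_pow, hY19, det_one]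
    have e0 : Y.det ≠ 0 := by
      intro h0
      rw [h0, zero_pow (by norm_num)] at e1
      exact zero_ne_one e1
    have e2 : Y.det ^ 63 = 1 := by
      have := FiniteField.pow_card_sub_one_eq_one Y.det e0
      rwa [hF] at this
    have e3 : Y.det ^ 190 = 1 := by rw [show 190 = 19 * 10 from rfl, pow_mul, e1, one_pow]
    have e4 : Y.det ^ 189 = 1 := by rw [show 189 = 63 * 3 from rfl, pow_mul, e2, one_pow]
    rw [pow_succ, e4, one_mul] at e3
    exact e3
  let g : SU 3 F 8 := mkSU Y hdet (unit_of_eq hρq hYu)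
  have hg : mat g = Y := rfl
  have hgp : ∀ k : ℕ, mat (g ^ k) = Y ^ k := by
    intro k
    induction k with
    | zero => rw [pow_zero, pow_zero, mat_one]
    | succ k ih => rw [pow_succ, mat_mul, ih, hg, pow_succ]
  have hg19 : g ^ 19 = 1 := by
    apply mat_injective
    rw [hgp, hY19, mat_one]
  have hSY : sm F * Yᵀ * sm F = Y := by
    have e1 : sm F * (cm c ^ 2)ᵀ * sm F = cm c ^ 2 := by
      rw [pow_two, transpose_mul]
      calc sm F * ((cm c)ᵀ * (cm c)ᵀ) * sm F = sm F * (cm c)ᵀ * (sm F * sm F) * (cm c)ᵀ * sm F := by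
            rw [sm_sq, Matrix.mul_one]; simp only [Matrix.mul_assoc]
        _ = (sm F * (cm c)ᵀ * sm F) * (sm F * (cm c)ᵀ * sm F) := by simp only [Matrix.mul_assoc]
        _ = cm c * cm c := by rw [sm_cm]
    rw [hY, transpose_add, transpose_add, transpose_smul, transpose_smul, transpose_smul, transpose_one,
      Matrix.mul_add, Matrix.mul_add, Matrix.add_mul, Matrix.add_mul, mul_smul_comm, mul_smul_comm, mul_smul_comm,
      smul_mul_assoc, smul_mul_assoc, smul_mul_assoc, Matrix.mul_one, sm_sq, sm_cm, e1]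
  -- `toAut S ρ` inverts the image of `g`
  have hinv : (toAut S ρ : MulAut (PSU 3 F 8)) (pr 3 F 8 g) = (pr 3 F 8 g)⁻¹ := by
    rw [toAut_eq, MulAut.mul_apply, eq_inv_iff_mul_eq_one]
    change pr 3 F 8 (semiConj S 1 (semiConj 1 ρ g)) * pr 3 F 8 g = 1
    rw [← map_mul]
    have e1 : semiConj S 1 (semiConj 1 ρ g) * g = 1 := by
      apply mat_injective
      rw [mat_mul, H202.Psu.mat_semiConj_one, H202.Psu.mat_semiConj_field, hg, hSi, hS, mat_one]
      have e2 : Y.map ρ * Yᵀ = 1 := mul_eq_one_comm.1 hYu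
      calc sm F * Y.map ρ * sm F * Y = sm F * Y.map ρ * sm F * (sm F * Yᵀ * sm F) := by rw [hSY]
        _ = sm F * Y.map ρ * (sm F * sm F) * Yᵀ * sm F := by simp only [Matrix.mul_assoc]
        _ = sm F * (Y.map ρ * Yᵀ) * sm F := by rw [sm_sq, Matrix.mul_one]; simp only [Matrix.mul_assoc]
        _ = 1 := by rw [e2, Matrix.mul_one, sm_sq]
    rw [e1, map_one]
  -- the order
  haveI : Fact (Nat.Prime 19) := ⟨by norm_num⟩
  have hog : orderOf (pr 3 F 8 g) = 19 := by
    apply orderOf_eq_prime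
    · rw [← map_pow, hg19, map_one]
    · intro h1
      have h1' : g ∈ Subgroup.center (SU 3 F 8) := (QuotientGroup.eq_one_iff g).1 h1
      obtain ⟨z, hz, hzg⟩ := exists_scalar_of_mem_center hF' le_rfl h1'
      have e1 : Y = z • (1 : Matrix (Fin 3) (Fin 3) F) := by
        apply Matrix.mulVec_injective
        funext v
        rw [smul_mulVec, one_mulVec]
        exact hzg v
      have e2 : z ^ 19 = 1 := by
        rw [e1, _root_.smul_pow, one_pow] at hY19
        have := congrFun (congrFun hY19 0) 0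
        rwa [Matrix.smul_apply, Matrix.one_apply_eq, smul_eq_mul, mul_one] at this
      have e3 : z ^ 3 = 1 := by
        rw [e1, det_smul, det_one, mul_one, Fintype.card_fin] at hdet
        exact hdet
      have e4 : z = 1 := by
        have e5 : z ^ 19 = z := by
          rw [show 19 = 3 * 6 + 1 from rfl, pow_succ, pow_mul, e3, one_pow, one_mul]
        rw [← e5, e2]
      rw [e4, one_smul] at e1
      exact hY1 e1
  -- transport
  have hconj : (toAut A ρ : MulAut (PSU 3 F 8)) = (f₁ P * (f₁ Q)⁻¹) * toAut S ρ * (f₁ P * (f₁ Q)⁻¹)⁻¹ := by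
    rw [toAut_conj hP, toAut_conj hQ]
    group
  refine ⟨(f₁ P * (f₁ Q)⁻¹) (pr 3 F 8 g), ?_, ?_⟩
  · rw [← hog]
    exact MulEquiv.orderOf_eq (f₁ P * (f₁ Q)⁻¹ : MulAut (PSU 3 F 8)) _
  · rw [hconj, MulAut.mul_apply, MulAut.mul_apply, MulAut.inv_apply_self, hinv, map_inv]

end Cfsg.Agent.H46.U38
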